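import Cfsg.Agent.H6.J4.D1.B0
import Cfsg.Agent.H6.J4.D1.B1

set_option autoImplicit false
set_option maxRecDepth 100000
set_option Elab.async false

namespace Cfsg.H6.J4.D1

theorem hv {G : Type*} [Group G] {ev : ℕ → G} {H : Subgroup G} (h : D.Hyp ev H) :
    ∀ c < 38, D.Valid ev H (D.cl c) :=
  Dce.all_valid h (allR_range k0 (by norm_num : 0 + 38 = 38))

theorem top : ⊤ ≤ gen N.ev (D.genW [0,1]) :=
  N.hX2.ge.trans (gen_le_of_letChk (by decide +kernel))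

def E : List (ℕ × ℕ) := [(1, 1771), (0, 1), (2, 276)]

theorem hT {G : Type*} [Group G] {ev : ℕ → G} {H : Subgroup G} {θ : J4.N.Q.Grp →* G}
    (M : D.Model ev J4.N.Q.ev θ J4.N.Q.φ J4.N.Q.img 1771) (h : D.Hyp ev H) :
    ∀ i ∈ E.map Prod.fst, ∀ p, D.InU ev H θ (E.map Prod.fst) (evL ev (D.gw i) * θ p * ev D.T) :=
  (List.forall_mem_cons.mpr ⟨Dce.fin_sound M h (hv h) f1, (List.forall_mem_cons.mpr ⟨Dce.fin_sound M h (hv h) f0, (List.forall_mem_cons.mpr ⟨Dce.fin_sound M h (hv h) f2, (by simp)⟩)⟩)⟩)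

theorem hE {G : Type*} [Group G] {ev : ℕ → G} {H : Subgroup G} {θ : J4.N.Q.Grp →* G}
    (M : D.Model ev J4.N.Q.ev θ J4.N.Q.φ J4.N.Q.img 1771) (h : D.Hyp ev H) :
    ∀ e ∈ E, Cover ((rcStab H (evL ev (D.gw e.1))).comap θ) ⊤ e.2 := by
  have := J4.N.Q.finite
  exact (List.forall_mem_cons.mpr ⟨Dce.cover_one M h (hv h) (Gs := [4,5,6,7]) (by decide +kernel) s1 (by rw [J4.N.Q.card]; decide +kernel), (List.forall_mem_cons.mpr ⟨Dce.cover_top M h (hv h) (Gs := [0,1]) (by decide +kernel) top, (List.forall_mem_cons.mpr ⟨Dce.cover_one M h (hv h) (Gs := [12,13,14,15,16,20,36]) (by decide +kernel) s2 (by rw [J4.N.Q.card]; decide +kernel), (by simp)⟩)⟩)⟩)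

theorem model {G : Type*} [Group G] {ev : ℕ → G} {θ : N.Grp →* G}
    (hθ : ∀ l, 1 ≤ l → l < 15 → θ (N.ev l) = ev l) : D.Model ev N.ev θ N.Q.φ N.Q.img 1771 :=
  ⟨hθ, N.Q.hφ, N.Q.hφ.lt_of_gen (by norm_num) N.hX (by decide +kernel), stab, by decide +kernel⟩


end Cfsg.H6.J4.D1
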